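import Mathlib
import Cfsg.Prelude.Def_GeometricClasses
import Cfsg.Agent.Lib.Elusive.SL
import Cfsg.Agent.Lib.MatConj.CentDet
import Cfsg.Agent.Lib.MatConj.Tilde
import Cfsg.Agent.Lib.Classical.SLCard

/-!
Prime order elements of `PSL_n(q)` that are conjugate into a subgroup `H` of `GL_n(q)`:
reduction to conjugacy in `GL_n(q)`, standard test elements, index arithmetic.
-/

set_option autoImplicit false

namespace CfsgLib.ElusH

open Matrix Polynomial CfsgLib.MatConj CfsgLib.Elusive Cfsg.Geo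

section group
variable {G K : Type*} [Group G] [Group K]

theorem relIndex_mul_dvd (H S : Subgroup G) (φ : K →* G) (hφ : Function.Injective φ)
    (hH : ∀ k, φ k ∈ H) (hS : ∀ k, φ k ∈ S) : H.relIndex S * Nat.card K ∣ Nat.card S := by
  let ψ : K →* H.subgroupOf S :=
    (φ.codRestrict S hS).codRestrict (H.subgroupOf S) fun k => hH k
  have hψ : Function.Injective ψ := fun a b h => hφ (congrArg (fun x => (x.1.1 : G)) h)
  have := Subgroup.card_dvd_of_injective ψ hψ
  rw [← Subgroup.index_mul_card (H.subgroupOf S)]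
  exact Nat.mul_dvd_mul_left _ this

theorem relIndex_mul_dvd_of_le (H S L : Subgroup G) (hH : L ≤ H) (hS : L ≤ S) :
    H.relIndex S * Nat.card L ∣ Nat.card S :=
  relIndex_mul_dvd H S L.subtype L.subtype_injective (fun k => hH k.2) fun k => hS k.2

theorem relIndex_dvd_card' (H S : Subgroup G) : H.relIndex S ∣ Nat.card S :=
  Subgroup.index_dvd_card _

end group

variable {F : Type*} [Field F] {ι : Type} [Fintype ι] [DecidableEq ι]

/-- `A ^ r` is scalar and `A` is not. -/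
def PE (r : ℕ) (A : Matrix ι ι F) : Prop := (∃ z : F, A ^ r = z • 1) ∧ ∀ c : F, A ≠ c • 1

/-- `A` is conjugate in the general linear group into `H`. -/
def CI (H : Subgroup (GL ι F)) (A : Matrix ι ι F) : Prop :=
  ∃ g ∈ H, IsConj A (g : Matrix ι ι F)

/-- Elements of `S` of order `r` modulo scalars are `S`-conjugate into `H`. -/
def Elu (S H : Subgroup (GL ι F)) (r : ℕ) : Prop :=
  ∀ x ∈ S, (∃ z : F, ((x ^ r : GL ι F) : Matrix ι ι F) = z • (1 : Matrix ι ι F)) →
    (∀ z : F, (x : Matrix ι ι F) ≠ z • (1 : Matrix ι ι F)) → ∃ g ∈ S, g⁻¹ * x * g ∈ H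

theorem mem_SL {g : GL ι F} : g ∈ specialLinear ι F ↔ (g : Matrix ι ι F).det = 1 := by
  rw [specialLinear, MonoidHom.mem_ker, Units.ext_iff]; rfl

theorem range_toGL : (SpecialLinearGroup.toGL : SpecialLinearGroup ι F →* GL ι F).range =
    specialLinear ι F := by
  ext g
  rw [mem_SL]
  constructor
  · rintro ⟨x, rfl⟩; exact x.2
  · intro h; exact ⟨⟨g, h⟩, Units.ext rfl⟩

theorem index_comap_toGL (H : Subgroup (GL ι F)) :
    (H.comap (SpecialLinearGroup.toGL : SpecialLinearGroup ι F →* GL ι F)).index =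
      H.relIndex (specialLinear ι F) := by
  rw [Subgroup.index_comap, range_toGL]

theorem card_specialLinear : Nat.card (specialLinear ι F) = Nat.card (SpecialLinearGroup ι F) := by
  rw [← range_toGL]
  exact (Nat.card_congr (MonoidHom.ofInjective SpecialLinearGroup.toGL_injective).toEquiv).symm

theorem forall_SL_iff_elu (H : Subgroup (GL ι F)) (r : ℕ) :
    (∀ x : SpecialLinearGroup ι F,
      (∃ z : F, ((x ^ r : SpecialLinearGroup ι F) : Matrix ι ι F) = z • (1 : Matrix ι ι F)) →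
      (∀ z : F, (x : Matrix ι ι F) ≠ z • (1 : Matrix ι ι F)) →
      ∃ P : SpecialLinearGroup ι F, P⁻¹ * x * P ∈
        H.comap (SpecialLinearGroup.toGL : SpecialLinearGroup ι F →* GL ι F)) ↔
      Elu (specialLinear ι F) H r := by
  constructor
  · intro h x hx h1 h2
    rw [← range_toGL] at hx
    obtain ⟨x, rfl⟩ := hx
    obtain ⟨P, hP⟩ := h x (by simpa using h1) h2
    refine ⟨SpecialLinearGroup.toGL P, by rw [← range_toGL]; exact ⟨P, rfl⟩, ?_⟩
    simpa using hP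
  · intro h x h1 h2
    obtain ⟨g, hg, hP⟩ := h (SpecialLinearGroup.toGL x) (by rw [← range_toGL]; exact ⟨x, rfl⟩)
      (by simpa using h1) h2
    rw [← range_toGL] at hg
    obtain ⟨P, rfl⟩ := hg
    exact ⟨P, by simpa using hP⟩

theorem isConj_conj (g x : GL ι F) :
    IsConj (x : Matrix ι ι F) ((g⁻¹ * x * g : GL ι F) : Matrix ι ι F) :=
  (isConj_units_iff _ _).1 (isConj_iff.2 ⟨g⁻¹, by rw [inv_inv]⟩)

theorem Elu.ci {S H : Subgroup (GL ι F)} {r : ℕ} (h : Elu S H r) {x : GL ι F} (hx : x ∈ S)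
    (hp : PE r (x : Matrix ι ι F)) : CI H (x : Matrix ι ι F) := by
  obtain ⟨g, -, hg⟩ := h x hx (by simpa using hp.1) hp.2
  exact ⟨_, hg, isConj_conj g x⟩

theorem exists_GL {A : Matrix ι ι F} (h : A.det ≠ 0) : ∃ g : GL ι F, (g : Matrix ι ι F) = A :=
  ⟨GeneralLinearGroup.mkOfDetNeZero A h, rfl⟩

theorem Elu.ci_of_det {H : Subgroup (GL ι F)} {r : ℕ} (h : Elu (specialLinear ι F) H r)
    {A : Matrix ι ι F} (hA : A.det = 1) (hp : PE r A) : CI H A := by
  obtain ⟨g, rfl⟩ := exists_GL (A := A) (by rw [hA]; exact one_ne_zero)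
  exact h.ci (mem_SL.2 hA) hp

theorem CI.of_isConj {H : Subgroup (GL ι F)} {A B : Matrix ι ι F} (e : IsConj A B) (h : CI H B) :
    CI H A := by
  obtain ⟨g, hg, e'⟩ := h
  exact ⟨g, hg, e.trans e'⟩

theorem isConj_smul {A B : Matrix ι ι F} (e : IsConj A B) (c : F) : IsConj (c • A) (c • B) := by
  obtain ⟨P, hP, h⟩ := isConj_iff_exists_unit.1 e
  exact isConj_iff_exists_unit.2 ⟨P, hP, by rw [mul_smul_comm, h, smul_mul_assoc]⟩

theorem CI.smul {H : Subgroup (GL ι F)} (hH : scalars ι F ≤ H) {A : Matrix ι ι F} (h : CI H A)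
    {c : F} (hc : c ≠ 0) : CI H (c • A) := by
  obtain ⟨g, hg, e⟩ := h
  let s : GL ι F := Units.map (Matrix.scalar ι : F →+* Matrix ι ι F).toMonoidHom (Units.mk0 c hc)
  refine ⟨s * g, H.mul_mem (hH ⟨_, rfl⟩) hg, ?_⟩
  have : ((s * g : GL ι F) : Matrix ι ι F) = c • (g : Matrix ι ι F) := by
    simp [s, Matrix.smul_eq_diagonal_mul]
  rw [this]
  exact isConj_smul e c

theorem CI.of_smul {H : Subgroup (GL ι F)} (hH : scalars ι F ≤ H) {A : Matrix ι ι F} {c : F}
    (hc : c ≠ 0) (h : CI H (c • A)) : CI H A := by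
  simpa [smul_smul, inv_mul_cancel₀ hc] using h.smul hH (inv_ne_zero hc)

theorem exists_SL_of_ci {H : Subgroup (GL ι F)} {x : GL ι F} (h : CI H (x : Matrix ι ι F))
    (hd : ∀ d : F, d ≠ 0 → ∃ c : Matrix ι ι F, Commute c x ∧ c.det = d) :
    ∃ g ∈ specialLinear ι F, g⁻¹ * x * g ∈ H := by
  obtain ⟨y, hy, e⟩ := h
  obtain ⟨P, hP, h⟩ := exists_det_one_conj e hd
  obtain ⟨P, rfl⟩ := exists_GL (A := P) (by rw [hP]; exact one_ne_zero)
  refine ⟨P⁻¹, inv_mem (mem_SL.2 hP), ?_⟩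
  have : P * x = y * P := Units.ext h
  rwa [inv_inv, this, mul_inv_cancel_right]

theorem PE.isPE {r : ℕ} {A : Matrix ι ι F} (h : PE r A) : IsPE r (toLin' A) :=
  (isPE_toLin'_iff A r).2 h

theorem PE.smul {r : ℕ} {A : Matrix ι ι F} (h : PE r A) {c : F} (hc : c ≠ 0) : PE r (c • A) := by
  refine (isPE_toLin'_iff _ r).1 ?_
  rw [map_smul]
  exact h.isPE.smul hc

theorem PE.nonempty {r : ℕ} {A : Matrix ι ι F} (h : PE r A) : Nonempty ι := by
  by_contra h0
  rw [not_nonempty_iff] at h0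
  exact h.2 0 (Subsingleton.elim _ _)

theorem PE.of_isConj {r : ℕ} {A B : Matrix ι ι F} (e : IsConj A B) (h : PE r A) : PE r B := by
  obtain ⟨⟨z, hz⟩, h2⟩ := h
  have key : ∀ {A B : Matrix ι ι F} {c : F}, IsConj A B → A = c • 1 → B = c • 1 := by
    rintro A B c ⟨P, hP⟩ rfl
    have : (P : Matrix ι ι F) * (c • 1) = B * P := hP
    rw [mul_smul_comm, mul_one] at this
    calc B = B * P * (P⁻¹ : (Matrix ι ι F)ˣ) := by simp
      _ = c • 1 := by rw [← this, smul_mul_assoc, Units.mul_inv]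
  exact ⟨⟨z, key (e.pow r) hz⟩, fun c hc => h2 c (key e.symm hc)⟩

theorem pow_eq_of_isConj {A B : Matrix ι ι F} (e : IsConj A B) {r : ℕ} {z : F}
    (h : A ^ r = z • 1) : B ^ r = z • 1 := by
  obtain ⟨P, hP⟩ := e.pow r
  have : (P : Matrix ι ι F) * A ^ r = B ^ r * P := hP
  rw [h, mul_smul_comm, mul_one] at this
  calc B ^ r = B ^ r * P * (P⁻¹ : (Matrix ι ι F)ˣ) := by simp
    _ = z • 1 := by rw [← this, smul_mul_assoc, Units.mul_inv]

theorem pow_eq_one_of_isConj {A B : Matrix ι ι F} (e : IsConj A B) {r : ℕ}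
    (h : A ^ r = 1) : B ^ r = 1 := by
  simpa using pow_eq_of_isConj (z := 1) e (by simpa using h)

theorem det_eq_of_isConj {A B : Matrix ι ι F} (e : IsConj A B) : A.det = B.det := by
  obtain ⟨P, hP, h⟩ := isConj_iff_exists_unit.1 e
  have := congrArg det h
  rw [det_mul, det_mul, mul_comm] at this
  exact mul_right_cancel₀ hP.ne_zero this

theorem aeval_X_pow_sub_C {A : Matrix ι ι F} {r : ℕ} {z : F} :
    aeval A (X ^ r - C z : F[X]) = 0 ↔ A ^ r = z • 1 := by
  simp [sub_eq_zero, Algebra.algebraMap_eq_smul_one]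

theorem ne_zero_of_pow {A : Matrix ι ι F} [Nonempty ι] (hd : A.det ≠ 0) {r : ℕ} {z : F}
    (h : A ^ r = z • 1) : z ≠ 0 := by
  rintro rfl
  have := congrArg det h
  rw [det_pow, zero_smul, det_zero] at this
  exact hd (pow_eq_zero_iff' |>.1 this).1

section finite
variable [Fintype F] {p r : ℕ} [hp : Fact p.Prime] [CharP F p] [hr : Fact r.Prime]

theorem PE.split_or {A : Matrix ι ι F} (h : PE r A) (hd : A.det ≠ 0) :
    (∃ b : F, b ≠ 0 ∧ (b • A) ^ r = 1) ∨ ∃ z : F, A ^ r = z • 1 ∧ ∀ b : F, b ^ r ≠ z := by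
  obtain ⟨z, hz⟩ := h.1
  haveI := h.nonempty
  by_cases hb : ∃ b : F, b ^ r = z
  · obtain ⟨b, rfl⟩ := hb
    have hb : b ≠ 0 := fun h0 => ne_zero_of_pow hd hz (by rw [h0, zero_pow hr.out.ne_zero])
    exact Or.inl ⟨b⁻¹, inv_ne_zero hb, by
      rw [_root_.smul_pow, hz, smul_smul, ← mul_pow, inv_mul_cancel₀ hb, one_pow, one_smul]⟩
  · push Not at hb
    exact Or.inr ⟨z, hz, hb⟩

theorem PE.split {A : Matrix ι ι F} (h : PE r A) (hd : A.det ≠ 0) (hq : ¬ r ∣ Fintype.card F - 1) :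
    ∃ b : F, b ≠ 0 ∧ (b • A) ^ r = 1 := by
  rcases h.split_or hd with h | ⟨z, -, hz⟩
  · exact h
  · exact absurd (dvd_sub_one_of_not_pow hz) hq

include hp in
theorem PE.det_surj {A : Matrix ι ι F} (h : PE r A) (hd : A.det ≠ 0) (hrp : r ≠ p ∨ r = 2)
    (d : F) : ∃ c : Matrix ι ι F, Commute c A ∧ c.det = d := by
  haveI := h.nonempty
  obtain ⟨z, hz⟩ := h.1
  by_cases hrp' : r = p
  · have h2 : r = 2 := hrp.resolve_left (fun h => h hrp')
    subst hrp'
    subst h2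
    obtain ⟨x, hx⟩ := Multiset.exists_mem_of_ne_zero (edM_ne_zero A)
    have h1 := (aeval_eq_zero_iff_edM A _).1 (aeval_X_pow_sub_C.2 hz) x hx
    obtain ⟨i1, i2, i3⟩ := edM_valid A x hx
    have h3 := natDegree_le_of_dvd h1 (X_pow_sub_C_ne_zero (by norm_num) z)
    rw [natDegree_X_pow_sub_C, i2.natDegree_pow] at h3
    have h4 := i1.natDegree_pos
    have h5 : x.2 = 1 ∨ x.2 = 2 := by
      have : x.2 ≤ 2 := by nlinarith
      omega
    rcases h5 with h5 | h5
    · exact det_surj_of_exp_one hx h5 d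
    · obtain ⟨e, rfl⟩ := exists_pow_eq_of_not_dvd (char_not_dvd_sub_one (F := F) (p := 2)) d
      have := exists_commute_det_pow_edM A hx e
      rwa [h5] at this
  · exact det_surj_of_squarefree (squarefree_X_pow_sub_C hrp' (ne_zero_of_pow hd hz))
      (aeval_X_pow_sub_C.2 hz) d

include hp in
/-- For semisimple elements and involutions, conjugacy in `SL` is conjugacy in `GL`. -/
theorem elu_SL_iff (H : Subgroup (GL ι F)) (hrp : r ≠ p ∨ r = 2) :
    Elu (specialLinear ι F) H r ↔ ∀ A : Matrix ι ι F, A.det = 1 → PE r A → CI H A := by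
  refine ⟨fun h A => h.ci_of_det, fun h x hx h1 h2 => ?_⟩
  have hx' := mem_SL.1 hx
  have hp : PE r (x : Matrix ι ι F) := ⟨by simpa using h1, h2⟩
  exact exists_SL_of_ci (h _ hx' hp) fun d _ =>
    hp.det_surj (by rw [hx']; exact one_ne_zero) hrp d

theorem noNS_split {A : Matrix ι ι F} (h : PE r A) (hd : A.det = 1)
    (hN : NoNS r (Fintype.card ι) (Fintype.card F)) : ∃ b : F, b ≠ 0 ∧ (b • A) ^ r = 1 := by
  rcases h.split_or (by rw [hd]; exact one_ne_zero) with h | ⟨z, hz, hz'⟩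
  · exact h
  · exfalso
    haveI := h.nonempty
    have := not_noNS_of_nonsplit (T := toLin' A) (z := z)
      (by simp) (by rw [LinearMap.det_toLin', hd]) ((toLin'_pow_eq_smul_iff A r z).2 hz) hz'
    rw [Module.finrank_fintype_fun_eq_card] at this
    exact this hN

theorem exists_nonsplit_mat [Nonempty ι] (hq : r ∣ Fintype.card F - 1)
    (hN : ¬ NoNS r (Fintype.card ι) (Fintype.card F)) :
    ∃ (A : Matrix ι ι F) (z : F), A.det = 1 ∧ PE r A ∧ A ^ r = z • 1 ∧ ∀ b : F, b ^ r ≠ z := by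
  obtain ⟨T, z, h1, h2, h3, h4⟩ := exists_nonsplit (V := ι → F) hq (by simp)
    (by rwa [Module.finrank_fintype_fun_eq_card])
  obtain ⟨A, rfl⟩ := toLin'.surjective T
  exact ⟨A, z, by rwa [LinearMap.det_toLin'] at h1, (isPE_toLin'_iff A r).1 h2,
    (toLin'_pow_eq_smul_iff A r z).1 h3, h4⟩

theorem edM_ssEd (hrp : r ≠ p) {A : Matrix ι ι F} (hA : A ^ r = 1) :
    ∃ e t, (∀ f ∈ t, f ∈ cyc F r) ∧ edM A = ssEd e t :=
  ed_ssEd hrp (T := toLin' A) (by rw [← toLin'_pow, hA, toLin'_one]; rfl)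

theorem edM_unEd {A : Matrix ι ι F} (hA : A ^ p = 1) :
    ∃ μ : Multiset ℕ, (∀ a ∈ μ, 0 < a ∧ a ≤ p) ∧ edM A = unEd μ :=
  ed_unEd (T := toLin' A) (by rw [← toLin'_pow, hA, toLin'_one]; rfl)

omit [Fintype F] in
theorem card_eq_mdeg (A : Matrix ι ι F) : Fintype.card ι = mdeg (edM A) := card_eq_sum_edM A

theorem gcdDeg_ssEd (hrp : r ≠ p) (e : ℕ) {t : Multiset F[X]} (ht : ∀ f ∈ t, f ∈ cyc F r) :
    gcdDeg (ssEd e t) (X - 1) = e := by
  classical
  have := gcdDeg_pow (valid_ssEd e ht) irreducible_X_sub_one monic_X_sub_one 1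
  rw [pow_one] at this
  rw [this, ssEd, Multiset.map_add, Multiset.sum_add, Multiset.map_replicate, Multiset.map_map]
  rw [Multiset.sum_eq_zero (s := Multiset.map _ t)]
  · simp [natDegree_X_sub_one]
  · intro a ha
    obtain ⟨f, hf, rfl⟩ := Multiset.mem_map.1 ha
    simp [ne_of_mem_cyc hrp (ht f hf)]

theorem rank_of_ssEd (hrp : r ≠ p) {A : Matrix ι ι F} {e : ℕ} {t : Multiset F[X]}
    (ht : ∀ f ∈ t, f ∈ cyc F r) (h : edM A = ssEd e t) :
    (A - 1).rank = orderOf (Fintype.card F : ZMod r) * Multiset.card t ∧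
      e + orderOf (Fintype.card F : ZMod r) * Multiset.card t = Fintype.card ι := by
  have h1 := gcdDeg_edM_add_rank A (X - 1)
  have h2 := card_eq_mdeg A
  rw [h, gcdDeg_ssEd hrp e ht] at h1
  rw [h, mdeg_ssEd hrp e ht] at h2
  simp only [map_sub, aeval_X, map_one] at h1
  omega

theorem ord_dvd_rank (hrp : r ≠ p) {A : Matrix ι ι F} (hA : A ^ r = 1) :
    orderOf (Fintype.card F : ZMod r) ∣ (A - 1).rank := by
  obtain ⟨e, t, ht, h⟩ := edM_ssEd hrp hA
  rw [(rank_of_ssEd hrp ht h).1]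
  exact dvd_mul_right _ _

theorem exists_ssEd_mat (hrp : r ≠ p) {e : ℕ} {t : Multiset F[X]} (ht : ∀ f ∈ t, f ∈ cyc F r)
    (h : e + orderOf (Fintype.card F : ZMod r) * Multiset.card t = Fintype.card ι) :
    ∃ A : Matrix ι ι F, edM A = ssEd e t ∧ A ^ r = 1 := by
  obtain ⟨A, hA⟩ := exists_edM_eq (n := ι) (valid_ssEd e ht)
    (by rw [← h, ← mdeg_ssEd hrp e ht]; rfl)
  refine ⟨A, hA, ?_⟩
  have := (aeval_eq_zero_iff_edM A (X ^ r - 1)).2 (hA ▸ dvd_of_mem_ssEd e ht)
  simpa [sub_eq_zero] using this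

theorem det_eq_one_of_pow (h : ¬ r ∣ Fintype.card F - 1) {A : Matrix ι ι F} (hA : A ^ r = 1) :
    A.det = 1 :=
  eq_one_of_pow_eq_one h (by rw [← det_pow, hA, det_one])

theorem pe_of_pow_eq_one (h : ¬ r ∣ Fintype.card F - 1) {A : Matrix ι ι F} (hA : A ^ r = 1)
    (h1 : A ≠ 1) : PE r A := by
  refine ⟨⟨1, by simpa using hA⟩, fun c hc => h1 ?_⟩
  rcases isEmpty_or_nonempty ι with h0 | h0
  · exact Subsingleton.elim _ _
  · obtain ⟨i⟩ := h0
    rw [hc, _root_.smul_pow, one_pow] at hA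
    have : c ^ r = 1 := by simpa using congrFun (congrFun hA i) i
    rw [hc, eq_one_of_pow_eq_one h this, one_smul]

theorem ord_eq_one_iff : orderOf (Fintype.card F : ZMod r) = 1 ↔ r ∣ Fintype.card F - 1 :=
  orderOf_eq_one_iff_dvd Fintype.card_pos

/-- The basic semisimple test element: one non-trivial irreducible block. -/
theorem exists_one_block (hrp : r ≠ p) (h1 : ¬ r ∣ Fintype.card F - 1)
    (h : orderOf (Fintype.card F : ZMod r) ≤ Fintype.card ι) :
    ∃ (A : Matrix ι ι F) (f : F[X]), f ∈ cyc F r ∧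
      edM A = ssEd (Fintype.card ι - orderOf (Fintype.card F : ZMod r)) {f} ∧ A ^ r = 1 ∧
      A.det = 1 ∧ PE r A ∧ (A - 1).rank = orderOf (Fintype.card F : ZMod r) := by
  obtain ⟨f, hf⟩ := exists_mem_cyc (F := F) hrp
  have ht : ∀ g ∈ ({f} : Multiset F[X]), g ∈ cyc F r := by simpa using hf
  obtain ⟨A, hA, hr⟩ := exists_ssEd_mat (ι := ι) hrp
    (e := Fintype.card ι - orderOf (Fintype.card F : ZMod r)) ht (by simp; omega)
  have hk := (rank_of_ssEd hrp ht hA).1
  rw [Multiset.card_singleton, mul_one] at hk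
  refine ⟨A, f, hf, hA, hr, det_eq_one_of_pow h1 hr, pe_of_pow_eq_one h1 hr ?_, hk⟩
  rintro rfl
  have := ord_pos (F := F) hrp
  simp at hk
  omega

omit hr in
/-- A unipotent test element with the given Jordan type. -/
theorem exists_unip {μ : Multiset ℕ} (h1 : ∀ a ∈ μ, 0 < a ∧ a ≤ p) (h2 : μ.sum = Fintype.card ι)
    (h3 : ∃ a ∈ μ, a ≠ 1) : ∃ A : Matrix ι ι F, IsNilpotent (A - 1) ∧ jt A = μ ∧ A ^ p = 1 ∧
      A.det = 1 ∧ PE p A := by
  obtain ⟨A, hA, hj⟩ := exists_jt_eq (F := F) (n := ι) (fun a ha => (h1 a ha).1) h2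
  have hp1 : A ^ p = 1 := by
    have := (sub_one_pow_eq_zero_iff hA p).2 (hj ▸ fun a ha => (h1 a ha).2)
    have e := sub_one_pow_char_pow (F := F) p A 1
    rw [pow_one, this] at e
    exact (sub_eq_zero.1 e.symm)
  refine ⟨A, hA, hj, hp1, det_eq_one_of_isNilpotent_sub_one hA,
    pe_of_pow_eq_one char_not_dvd_sub_one hp1 fun h => ?_⟩
  obtain ⟨a, ha, ha1⟩ := h3
  exact ha1 ((eq_one_iff_jt hA).1 h a (hj ▸ ha))

omit hr in
/-- A transvection. -/
theorem exists_transv (h : 2 ≤ Fintype.card ι) : ∃ A : Matrix ι ι F, IsNilpotent (A - 1) ∧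
    jt A = 2 ::ₘ Multiset.replicate (Fintype.card ι - 2) 1 ∧ A ^ p = 1 ∧ A.det = 1 ∧ PE p A ∧
      (A - 1).rank = 1 := by
  obtain ⟨A, h1, h2, h3, h4, h5⟩ := exists_unip (F := F) (ι := ι) (p := p)
    (μ := 2 ::ₘ Multiset.replicate (Fintype.card ι - 2) 1) (by
      intro a ha
      have := hp.out.two_le
      rcases Multiset.mem_cons.1 ha with rfl | ha
      · omega
      · rw [Multiset.eq_of_mem_replicate ha]; omega) (by simp; omega) ⟨2, by simp, by simp⟩
  refine ⟨A, h1, h2, h3, h4, h5, ?_⟩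
  have := card_jt_add_rank h1
  rw [h2] at this
  simp at this
  omega

omit [Fintype F] in
theorem isNilpotent_of_pow_char {A : Matrix ι ι F} (h : A ^ p = 1) : IsNilpotent (A - 1) :=
  (isNilpotent_sub_one_iff_pow (F := F) p A).2 ⟨1, by rwa [pow_one]⟩

end finite

/-- Two matrices killed by the same irreducible polynomial have the same elementary divisors. -/
theorem edM_eq_of_irreducible [Fintype F] {κ : Type} [Fintype κ] [DecidableEq κ] {f : F[X]}
    (hf : Irreducible f) (hm : f.Monic) {A : Matrix ι ι F} {B : Matrix κ κ F}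
    (hA : aeval A f = 0) (hB : aeval B f = 0) (h : Fintype.card ι = Fintype.card κ) :
    edM A = edM B := by
  have e1 := eq_replicate_of_irreducible (edM_valid A) hf hm ((aeval_eq_zero_iff_edM A f).1 hA)
  have e2 := eq_replicate_of_irreducible (edM_valid B) hf hm ((aeval_eq_zero_iff_edM B f).1 hB)
  have c1 := card_eq_mdeg A
  have c2 := card_eq_mdeg B
  rw [e1, mdeg_replicate] at c1
  rw [e2, mdeg_replicate] at c2
  have := hf.natDegree_pos
  have : Multiset.card (edM A) = Multiset.card (edM B) :=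
    Nat.eq_of_mul_eq_mul_right (m := f.natDegree * 1) (by omega) (c1.symm.trans (h.trans c2))
  rw [e1, e2, this]

theorem irreducible_nonsplit {r : ℕ} [hr : Fact r.Prime] {z : F} (hz : ∀ b : F, b ^ r ≠ z) :
    Irreducible (X ^ r - C z : F[X]) :=
  X_pow_sub_C_irreducible_of_prime hr.out hz

end CfsgLib.ElusH
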