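import Mathlib
import Cfsg.Agent.Lib.ElusH.Basic

/-!
Diagonal test elements and eigenspace codimensions.
-/

set_option autoImplicit false

namespace CfsgLib.ElusH

open Matrix Polynomial CfsgLib.MatConj CfsgLib.Elusive Cfsg.Geo

variable {F : Type*} [Field F] {ι : Type} [Fintype ι] [DecidableEq ι]

/-- Codimension of the `a`-eigenspace. -/
noncomputable def rk (A : Matrix ι ι F) (a : F) : ℕ := (A - a • 1).rank

theorem rk_one (A : Matrix ι ι F) : rk A 1 = (A - 1).rank := by rw [rk, one_smul]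

theorem rk_of_isConj {A B : Matrix ι ι F} (e : IsConj A B) (a : F) : rk A a = rk B a := by
  have := rank_aeval_eq_of_isConj e (X - C a)
  simpa [rk, Algebra.algebraMap_eq_smul_one] using this

theorem rank_smul' {κ : Type} [Fintype κ] (A : Matrix ι κ F) {c : F} (hc : c ≠ 0) :
    (c • A).rank = A.rank := by
  have : c • A = (c • (1 : Matrix ι ι F)) * A := by rw [Matrix.smul_mul, Matrix.one_mul]
  rw [this, rank_mul_eq_right_of_isUnit_det]
  simp [hc]

theorem rk_smul (A : Matrix ι ι F) {c : F} (hc : c ≠ 0) (a : F) : rk (c • A) (c * a) = rk A a := by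
  rw [rk, mul_smul, ← smul_sub, rank_smul' _ hc, rk]

theorem rk_transpose (A : Matrix ι ι F) (a : F) : rk Aᵀ a = rk A a :=
  (rk_of_isConj (isConj_transpose A) a).symm

theorem rk_map {K : Type*} [Field K] (σ : F →+* K) (A : Matrix ι ι F) (a : F) :
    rk (A.map σ) (σ a) = rk A a := by
  rw [rk, rk, ← rank_map σ (A - a • 1)]
  congr 1
  ext i j
  simp only [Matrix.sub_apply, map_apply, Matrix.smul_apply, one_apply, map_sub, smul_eq_mul, map_mul]
  split_ifs <;> simp

theorem rk_inv {A B : Matrix ι ι F} (h : B * A = 1) {a : F} (ha : a ≠ 0) :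
    rk B a⁻¹ = rk A a := by
  have : B - a⁻¹ • 1 = (-a⁻¹) • (B * (A - a • 1)) := by
    rw [mul_sub, h, mul_smul_comm, mul_one, smul_sub, smul_smul, neg_mul, inv_mul_cancel₀ ha]
    simp [sub_eq_add_neg, add_comm]
  rw [rk, this, rank_smul' _ (neg_ne_zero.2 (inv_ne_zero ha)),
    rank_mul_eq_right_of_isUnit_det _ _ (isUnit_det_of_right_inverse h), rk]

/-- Eigenspace symmetry of a similarity of a non-degenerate sesquilinear form. -/
theorem rk_sim {σ : F →+* F} {A G : Matrix ι ι F} (hG : G.det ≠ 0) {μ : F} (hμ : μ ≠ 0)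
    (h : Aᵀ * G * A.map σ = μ • G) {a : F} (ha : a ≠ 0) : rk A (μ * (σ a)⁻¹) = rk A a := by
  have hG' : IsUnit G.det := Ne.isUnit hG
  have h1 : (G⁻¹ * (μ⁻¹ • Aᵀ) * G) * A.map σ = 1 := by
    rw [mul_assoc, mul_assoc, smul_mul_assoc, ← mul_assoc Aᵀ, h, smul_smul, inv_mul_cancel₀ hμ,
      one_smul, nonsing_inv_mul _ hG']
  have h2 : IsConj (μ⁻¹ • Aᵀ) (G⁻¹ * (μ⁻¹ • Aᵀ) * G) :=
    isConj_iff_exists_unit.2 ⟨G⁻¹, isUnit_nonsing_inv_det _ hG', by
      rw [mul_assoc _ G, mul_nonsing_inv _ hG', mul_one]⟩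
  rw [← rk_map σ A a, ← rk_inv h1 ((_root_.map_ne_zero σ).2 ha), ← rk_of_isConj h2,
    ← rk_transpose A, ← rk_smul Aᵀ (inv_ne_zero hμ), inv_mul_cancel_left₀ hμ]

theorem rk_le (A : Matrix ι ι F) (a : F) : rk A a ≤ Fintype.card ι := rank_le_card_width _

theorem rk_smul_one (c a : F) (h : a ≠ c) : rk (c • (1 : Matrix ι ι F)) a = Fintype.card ι := by
  rw [rk, ← sub_smul, rank_smul' _ (sub_ne_zero.2 h.symm), rank_one]

theorem not_scalar_of_rk {A : Matrix ι ι F} {a b : F} (hab : a ≠ b) (ha : rk A a < Fintype.card ι)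
    (hb : rk A b < Fintype.card ι) (c : F) : A ≠ c • 1 := by
  rintro rfl
  by_cases h : a = c
  · rw [rk_smul_one c b (h ▸ hab.symm)] at hb; omega
  · rw [rk_smul_one c a h] at ha; omega

theorem rk_diagonal [DecidableEq F] (d : ι → F) (a : F) :
    rk (diagonal d) a + (Finset.univ.val.map d).count a = Fintype.card ι := by
  have : diagonal d - a • (1 : Matrix ι ι F) = diagonal fun i => d i - a := by
    rw [smul_one_eq_diagonal, diagonal_sub]
  rw [rk, this, rank_diagonal, Multiset.count_map, Fintype.card_subtype, ← Finset.filter_val,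
    ← Finset.card_def, ← Finset.card_univ,
    ← Finset.card_filter_add_card_filter_not (s := Finset.univ) (p := fun i => a = d i), add_comm]
  congr 2
  ext i
  simp [sub_eq_zero, eq_comm]

theorem exists_fun_map_eq {α : Type*} (s : Multiset α) (h : Multiset.card s = Fintype.card ι) :
    ∃ d : ι → α, Finset.univ.val.map d = s := by
  obtain ⟨t, g, rfl⟩ := exists_map_univ_eq s
  simp only [Multiset.card_map, Finset.card_val, Finset.card_univ] at h
  let e : ι ≃ Fin t := Fintype.equivOfCardEq h.symm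
  refine ⟨g ∘ e, ?_⟩
  rw [← Multiset.map_map, Multiset.map_univ_val_equiv]

theorem diagonal_pow_eq {d : ι → F} {r : ℕ} {z : F} (h : ∀ i, d i ^ r = z) :
    diagonal d ^ r = z • 1 := by
  rw [diagonal_pow, smul_one_eq_diagonal]
  congr 1
  funext i
  exact h i

theorem exists_diag [DecidableEq F] (s : Multiset F) (h : Multiset.card s = Fintype.card ι)
    {r : ℕ} {z : F} (hz : ∀ a ∈ s, a ^ r = z) : ∃ A : Matrix ι ι F, A.det = s.prod ∧
      (∀ a, rk A a + s.count a = Fintype.card ι) ∧ A ^ r = z • 1 := by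
  obtain ⟨d, rfl⟩ := exists_fun_map_eq s h
  exact ⟨diagonal d, by rw [det_diagonal]; rfl, rk_diagonal d,
    diagonal_pow_eq fun i => hz _ (Multiset.mem_map_of_mem _ (Finset.mem_univ i))⟩

/-- A test element with two eigenvalues `b`, `b ω` that are determined by their multiplicities. -/
structure Bad (r : ℕ) (A : Matrix ι ι F) (b ω : F) : Prop where
  det : A.det = 1
  pe : PE r A
  b_ne : b ≠ 0
  ω_ne : ω ≠ 1
  ω_pow : ω ^ r = 1
  pow : A ^ r = b ^ r • 1
  uniq1 : ∀ a, rk A a = rk A b → a = b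
  uniq2 : ∀ a, rk A a = rk A (b * ω) → a = b * ω

theorem bad_of_multiset [DecidableEq F] {r : ℕ} (s : Multiset F)
    (h : Multiset.card s = Fintype.card ι) (hp : s.prod = 1) {b ω : F} (hb : b ≠ 0) (hω : ω ≠ 1)
    (hωr : ω ^ r = 1) (hz : ∀ a ∈ s, a ^ r = b ^ r) (h1 : b ∈ s) (h2 : b * ω ∈ s)
    (u1 : ∀ a, s.count a = s.count b → a = b) (u2 : ∀ a, s.count a = s.count (b * ω) → a = b * ω) :
    ∃ A : Matrix ι ι F, Bad r A b ω ∧ ∀ a, rk A a + s.count a = Fintype.card ι := by
  obtain ⟨A, h3, h4, h5⟩ := exists_diag s h hz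
  have hne : b ≠ b * ω := fun e => hω (mul_left_cancel₀ hb (by rw [mul_one, ← e]))
  refine ⟨A, ⟨h3.trans hp, ⟨⟨_, h5⟩, not_scalar_of_rk hne ?_ ?_⟩, hb, hω, hωr, h5, fun a ha => u1 a ?_,
    fun a ha => u2 a ?_⟩, h4⟩
  · have := h4 b; have := Multiset.count_pos.2 h1; omega
  · have := h4 (b * ω); have := Multiset.count_pos.2 h2; omega
  · have := h4 a; have := h4 b; omega
  · have := h4 a; have := h4 (b * ω); omega

theorem Bad.fix {r : ℕ} {A : Matrix ι ι F} {b ω : F} (h : Bad r A b ω) (hr : r ≠ 0) (τ : F → F)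
    (hτ : ∀ a, a ≠ 0 → rk A (τ a) = rk A a) : τ b = b ∧ τ (b * ω) = b * ω := by
  have : ω ≠ 0 := by
    rintro rfl
    have := h.ω_pow
    rw [zero_pow hr] at this
    exact zero_ne_one this
  exact ⟨h.uniq1 _ (hτ b h.b_ne), h.uniq2 _ (hτ _ (mul_ne_zero h.b_ne this))⟩

section finite
variable [Fintype F] {p r : ℕ} [hp : Fact p.Prime] [CharP F p] [hr : Fact r.Prime]

omit hr in
theorem exists_orderOf_eq {k : ℕ} (h : k ∣ Fintype.card F - 1) : ∃ c : F, c ≠ 0 ∧ orderOf c = k := by
  classical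
  have := IsCyclic.card_orderOf_eq_totient (α := Fˣ) (d := k) (by rwa [Fintype.card_units])
  have hk : 0 < k := Nat.pos_of_dvd_of_pos h (by have := Fintype.one_lt_card (α := F); omega)
  obtain ⟨c, hc⟩ := Finset.card_pos.1 (this ▸ Nat.totient_pos.2 hk)
  exact ⟨c, c.ne_zero, by rw [orderOf_units]; simpa using hc⟩

theorem exists_root (h : r ∣ Fintype.card F - 1) : ∃ ω : F, orderOf ω = r ∧ ω ≠ 1 ∧ ω ^ r = 1 := by
  obtain ⟨c, -, hc⟩ := exists_orderOf_eq h
  refine ⟨c, hc, ?_, hc ▸ pow_orderOf_eq_one c⟩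
  rintro rfl
  exact hr.out.one_lt.ne (by simpa using hc)

theorem exists_pow_mul_eq_one {n m : ℕ} (hn : n ≠ 0) (hm : m ∣ Fintype.card F - 1)
    (h : padicValNat r n < padicValNat r m) :
    ∃ b ω : F, b ≠ 0 ∧ b ^ m = 1 ∧ ω ≠ 1 ∧ ω ^ r = 1 ∧ b ^ n * ω = 1 := by
  have h0 : r ^ (padicValNat r n + 1) ∣ m := (pow_dvd_pow r h).trans pow_padicValNat_dvd
  obtain ⟨c, hc0, hc⟩ := exists_orderOf_eq (F := F) (h0.trans hm)
  refine ⟨c, (c ^ n)⁻¹, hc0, orderOf_dvd_iff_pow_eq_one.1 (hc ▸ h0), fun h1 => ?_, ?_,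
    mul_inv_cancel₀ (pow_ne_zero _ hc0)⟩
  · rw [inv_eq_one, ← orderOf_dvd_iff_pow_eq_one, hc] at h1
    exact pow_succ_padicValNat_not_dvd hn h1
  · rw [inv_pow, inv_eq_one, ← pow_mul, ← orderOf_dvd_iff_pow_eq_one, hc, pow_succ]
    exact Nat.mul_dvd_mul_right pow_padicValNat_dvd r

omit [Fintype F] in
/-- A scalar multiple of a reflection of determinant one. -/
theorem exists_refl_of {b ω : F} (hb : b ≠ 0) (hω : ω ≠ 1) (hωr : ω ^ r = 1)
    (h : b ^ Fintype.card ι * ω = 1) (hn : 2 ≤ Fintype.card ι) :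
    ∃ A : Matrix ι ι F, A.det = 1 ∧ PE r A ∧ A ^ r = b ^ r • 1 ∧ rk A b = 1 ∧
      rk A (b * ω) + 1 = Fintype.card ι ∧ (3 ≤ Fintype.card ι → Bad r A b ω) := by
  classical
  have hne : b ≠ b * ω := fun e => hω (mul_left_cancel₀ hb (by rw [mul_one, ← e]))
  obtain ⟨k, hk⟩ : ∃ k, Fintype.card ι = k + 1 := ⟨_, (Nat.sub_add_cancel (by omega)).symm⟩
  have hz : ∀ a ∈ (b * ω) ::ₘ Multiset.replicate k b, a ^ r = b ^ r := by
    intro a ha
    rcases Multiset.mem_cons.1 ha with rfl | ha
    · rw [mul_pow, hωr, mul_one]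
    · rw [Multiset.eq_of_mem_replicate ha]
  have hp : ((b * ω) ::ₘ Multiset.replicate k b).prod = 1 := by
    rw [← h, hk]; simp; ring
  obtain ⟨A, h1, h2, h3⟩ := exists_diag (ι := ι) ((b * ω) ::ₘ Multiset.replicate k b)
    (by simp [hk]) hz
  have c1 := h2 b
  have c2 := h2 (b * ω)
  simp [Multiset.count_replicate, hne, hne.symm] at c1 c2
  have hpe : PE r A := ⟨⟨_, h3⟩, not_scalar_of_rk hne (by omega) (by omega)⟩
  refine ⟨A, h1.trans hp, hpe, h3, by omega, c2, fun h4 => ⟨h1.trans hp, hpe, hb, hω, hωr, h3, ?_, ?_⟩⟩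
  · intro a ha
    have := h2 a
    by_contra hab
    simp [Multiset.count_cons, Multiset.count_replicate, Ne.symm hab] at this
    split_ifs at this <;> omega
  · intro a ha
    have := h2 a
    by_contra hab
    simp [Multiset.count_cons, Multiset.count_replicate, hab] at this
    split_ifs at this <;> omega

theorem exists_refl (h : padicValNat r (Fintype.card ι) < padicValNat r (Fintype.card F - 1))
    (hn : 2 ≤ Fintype.card ι) : ∃ (A : Matrix ι ι F) (b ω : F), b ≠ 0 ∧ ω ≠ 1 ∧ ω ^ r = 1 ∧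
      A.det = 1 ∧ PE r A ∧ A ^ r = b ^ r • 1 ∧ rk A b = 1 ∧
      rk A (b * ω) + 1 = Fintype.card ι ∧ (3 ≤ Fintype.card ι → Bad r A b ω) := by
  obtain ⟨b, ω, h1, -, h2, h3, h4⟩ := exists_pow_mul_eq_one (F := F) (r := r)
    (n := Fintype.card ι) (by omega) dvd_rfl h
  obtain ⟨A, hA⟩ := exists_refl_of h1 h2 h3 h4 hn
  exact ⟨A, b, ω, h1, h2, h3, hA⟩

theorem exists_bad (hr2 : r ≠ 2) (hq : r ∣ Fintype.card F - 1) (hn : 3 ≤ Fintype.card ι)
    (h6 : ¬ (Fintype.card ι = 6 ∧ r = 3))
    (hex : ¬ ((r = 3 ∨ r = 5) ∧ Fintype.card ι = r ∧ padicValNat r (Fintype.card F - 1) = 1)) :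
    ∃ (A : Matrix ι ι F) (b ω : F), Bad r A b ω := by
  classical
  by_cases h : padicValNat r (Fintype.card ι) < padicValNat r (Fintype.card F - 1)
  · obtain ⟨A, b, ω, -, -, -, -, -, -, -, -, hA⟩ := exists_refl h (by omega)
    exact ⟨A, b, ω, hA hn⟩
  have h0 : Fintype.card F - 1 ≠ 0 := by have := Fintype.one_lt_card (α := F); omega
  have h1 := one_le_padicValNat_of_dvd h0 hq
  have h2 : r ∣ Fintype.card ι := dvd_of_one_le_padicValNat (by omega)
  have h3 : ¬ ((r = 3 ∨ r = 5) ∧ Fintype.card ι = r) := fun h4 => hex ⟨h4.1, h4.2, by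
    rw [h4.2, padicValNat_self] at h; omega⟩
  obtain ⟨ω, ho, hω, hωr⟩ := exists_root hq
  have hω0 : ω ≠ 0 := by
    rintro rfl
    rw [zero_pow hr.out.ne_zero] at hωr
    exact zero_ne_one hωr
  obtain ⟨k, hk⟩ : ∃ k, Fintype.card ι = k + 3 := ⟨_, (Nat.sub_add_cancel hn).symm⟩
  by_cases h4 : r = 3
  · subst h4
    obtain ⟨A, hA, -⟩ := bad_of_multiset (ι := ι) (r := 3)
      (Multiset.replicate 3 ω + Multiset.replicate k 1) (by simp [hk]; try omega)
      (by rw [Multiset.prod_add, Multiset.prod_replicate, Multiset.prod_replicate, hωr]; simp)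
      one_ne_zero hω hωr (by
        intro a ha
        rcases Multiset.mem_add.1 ha with ha | ha <;> rw [Multiset.eq_of_mem_replicate ha]
        rw [hωr, one_pow]) (by simp [Multiset.mem_replicate]; omega) (by simp) (by
        intro a ha
        by_contra hab
        simp only [Multiset.count_add, Multiset.count_replicate, Ne.symm hab, hω] at ha
        split_ifs at ha <;> omega) (by
        intro a ha
        by_contra hab
        rw [one_mul] at ha hab
        simp only [Multiset.count_add, Multiset.count_replicate, Ne.symm hab, hω.symm] at ha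
        split_ifs at ha <;> omega)
    exact ⟨A, 1, ω, hA⟩
  · have h5 : 5 ≤ r := hr.out.five_le_of_ne_two_of_ne_three hr2 h4
    have h7 : 3 ≤ k := by
      have := Nat.le_of_dvd (by omega) h2
      by_contra h8
      exact h3 ⟨by omega, by omega⟩
    have e1 : (ω ^ 2)⁻¹ ≠ 1 := fun e => by
      rw [inv_eq_one, ← orderOf_dvd_iff_pow_eq_one, ho] at e
      have := Nat.le_of_dvd (by norm_num) e; omega
    have e2 : (ω ^ 2)⁻¹ ≠ ω := fun e => by
      have : ω ^ 3 = 1 := by rw [pow_succ, ← mul_inv_cancel₀ (pow_ne_zero 2 hω0), e]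
      rw [← orderOf_dvd_iff_pow_eq_one, ho] at this
      have := Nat.le_of_dvd (by norm_num) this; omega
    obtain ⟨A, hA, -⟩ := bad_of_multiset (ι := ι) (r := r)
      (Multiset.replicate 1 (ω ^ 2)⁻¹ + Multiset.replicate 2 ω + Multiset.replicate k 1)
      (by simp [hk]; try omega) (by simp; field_simp)
      one_ne_zero hω hωr (by
        intro a ha
        rcases Multiset.mem_add.1 ha with ha | ha
        · rcases Multiset.mem_add.1 ha with ha | ha <;> rw [Multiset.eq_of_mem_replicate ha]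
          · rw [inv_pow, ← pow_mul, mul_comm, pow_mul, hωr]; simp
          · rw [hωr, one_pow]
        · rw [Multiset.eq_of_mem_replicate ha]) (by simp [Multiset.mem_replicate]; omega)
        (by simp) (by
        intro a ha
        by_contra hab
        simp only [Multiset.count_add, Multiset.count_replicate, Ne.symm hab, hω, e1,
          if_false, if_true] at ha
        split_ifs at ha with i1 i2
        · exact e2 (i1.trans i2.symm)
        all_goals omega) (by
        intro a ha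
        by_contra hab
        rw [one_mul] at ha hab
        simp only [Multiset.count_add, Multiset.count_replicate, Ne.symm hab, hω.symm, e2,
          if_false, if_true] at ha
        split_ifs at ha with i1 i2
        · exact e1 (i1.trans i2.symm)
        all_goals omega)
    exact ⟨A, 1, ω, hA⟩

theorem charpoly_diagonal' (d : ι → F) :
    (diagonal d).charpoly = ((Finset.univ.val.map d).map fun a => X - C a).prod := by
  rw [charpoly_diagonal, Multiset.map_map]; rfl

include hp in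
theorem exists_isConj_diagonal (hrp : r ≠ p) (hq : r ∣ Fintype.card F - 1) {A : Matrix ι ι F}
    (hA : A ^ r = 1) : ∃ d : ι → F, (∀ i, d i ^ r = 1) ∧ IsConj A (diagonal d) := by
  classical
  have hi := ord_eq_one_iff.2 hq
  obtain ⟨e, t, ht, h⟩ := edM_ssEd hrp hA
  have hc := (rank_of_ssEd hrp ht h).2
  rw [hi, one_mul] at hc
  have hlin : ∀ f ∈ t, X - C (-f.coeff 0) = f ∧ (-f.coeff 0) ^ r = 1 := by
    intro f hf
    have h1 := natDegree_of_mem_cyc hrp (ht f hf)
    rw [hi] at h1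
    have h2 := ((mem_cyc.1 (ht f hf)).2.1).eq_X_add_C h1
    have h3 : X - C (-f.coeff 0) = f := by rw [map_neg, sub_neg_eq_add, ← h2]
    refine ⟨h3, ?_⟩
    have := dvd_of_mem_cyc (ht f hf)
    rw [← h3, dvd_iff_isRoot] at this
    simpa [sub_eq_zero] using this
  obtain ⟨d, hd⟩ := exists_fun_map_eq (ι := ι)
    (Multiset.replicate e 1 + t.map fun f => -f.coeff 0) (by simpa using hc)
  have hdr : ∀ i, d i ^ r = 1 := by
    intro i
    have : d i ∈ Finset.univ.val.map d := Multiset.mem_map_of_mem _ (Finset.mem_univ i)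
    rw [hd] at this
    rcases Multiset.mem_add.1 this with h1 | h1
    · rw [Multiset.eq_of_mem_replicate h1, one_pow]
    · obtain ⟨f, hf, h1⟩ := Multiset.mem_map.1 h1
      rw [← h1, (hlin f hf).2]
  refine ⟨d, hdr, isConj_of_charpoly_eq_of_pow_eq_one (cast_ne_zero hrp) (cast_ne_zero hrp) hA
    (by simpa using diagonal_pow_eq hdr) ?_⟩
  rw [charpoly_diagonal', hd, charpoly_eq_prod_edM, h, ssEd]
  simp only [Multiset.map_add, Multiset.map_replicate, Multiset.map_map, Function.comp, pow_one,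
    map_one]
  congr 2
  exact Multiset.map_congr rfl fun f hf => (hlin f hf).1.symm

theorem symm_three : ∀ a b c : ZMod 3, a + b + c = 0 → ∃ s : ZMod 3,
    ({a + s, b + s, c + s} : Multiset (ZMod 3)) = {-(a + s), -(b + s), -(c + s)} := by
  decide +kernel

theorem symm_five : ∀ a b c d e : ZMod 5, a + b + c + d + e = 0 → ∃ s : ZMod 5,
    ({a + s, b + s, c + s, d + s, e + s} : Multiset (ZMod 5)) =
      {-(a + s), -(b + s), -(c + s), -(d + s), -(e + s)} := by
  decide +kernel

omit [Fintype F] in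
theorem symm_zmod (h : r = 3 ∨ r = 5) (a : Fin r → ZMod r) (ha : ∑ i, a i = 0) :
    ∃ s : ZMod r, Finset.univ.val.map (fun i => a i + s) =
      Finset.univ.val.map fun i => -(a i + s) := by
  rcases h with rfl | rfl
  · rw [Fin.sum_univ_three] at ha
    exact symm_three _ _ _ ha
  · rw [Fin.sum_univ_five] at ha
    exact symm_five _ _ _ _ _ ha

include hp in
/-- The exceptional case `n = r ∈ {3, 5}`: a scalar multiple is a real diagonal element. -/
theorem exc_symm (hrp : r ≠ p) (h : r = 3 ∨ r = 5) (hv : padicValNat r (Fintype.card F - 1) = 1)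
    {A : Matrix (Fin r) (Fin r) F} (hd : A.det = 1) (hA : PE r A) :
    ∃ (c : F) (d : Fin r → F), c ≠ 0 ∧ (∀ i, d i ^ r = 1) ∧ IsConj (c • A) (diagonal d) ∧
      Finset.univ.val.map d = Finset.univ.val.map fun i => (d i)⁻¹ := by
  have hq : r ∣ Fintype.card F - 1 := dvd_of_one_le_padicValNat hv.ge
  obtain ⟨b, hb, hbA⟩ := noNS_split hA hd ⟨by simp [hv], by omega⟩
  obtain ⟨d, hd1, hd2⟩ := exists_isConj_diagonal hrp hq hbA
  obtain ⟨ω, ho, hω, hωr⟩ := exists_root hq
  have hprim : IsPrimitiveRoot ω r := ho ▸ IsPrimitiveRoot.orderOf ω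
  haveI : NeZero r := ⟨hr.out.ne_zero⟩
  choose a ha1 ha2 using fun i => hprim.eq_pow_of_pow_eq_one (hd1 i)
  have hω0 : ω ≠ 0 := hprim.ne_zero hr.out.ne_zero
  let φ : ZMod r → F := fun x => ω ^ x.val
  have φadd : ∀ x y, φ (x + y) = φ x * φ y := fun x y => by
    simp only [φ]
    rw [← pow_add, ZMod.val_add, ← pow_mod_orderOf ω (x.val + y.val), ho]
  have φ0 : φ 0 = 1 := by simp [φ]
  have φneg : ∀ x, φ (-x) = (φ x)⁻¹ := fun x =>
    eq_inv_of_mul_eq_one_left (by rw [← φadd, neg_add_cancel, φ0])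
  have φa : ∀ i, φ (a i) = d i := fun i => by
    simp only [φ]
    rw [ZMod.val_natCast, Nat.mod_eq_of_lt (ha1 i), ha2]
  have hsum : ∑ i, (a i : ZMod r) = 0 := by
    have h1 := det_eq_of_isConj hd2
    rw [det_smul, hd, mul_one, det_diagonal, Fintype.card_fin] at h1
    simp only [← ha2, Finset.prod_pow_eq_pow_sum] at h1
    rw [← Nat.cast_sum, ZMod.natCast_eq_zero_iff]
    by_contra h2
    have h3 : orderOf (b ^ r) = r := by
      rw [h1]
      generalize ∑ x, a x = N at h2
      rw [Nat.Coprime.orderOf_pow (by rw [ho]; exact (Nat.Prime.coprime_iff_not_dvd hr.out).2 h2), ho]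
    have h4 : r ^ 2 ∣ orderOf b := by
      have h5 : orderOf b = r ^ 2 := by
        refine orderOf_eq_prime_pow (n := 1) (fun h6 => ?_) ?_
        · rw [pow_one] at h6
          rw [h6, orderOf_one] at h3
          exact hr.out.one_lt.ne h3
        · rw [pow_succ, pow_one, pow_mul, ← orderOf_dvd_iff_pow_eq_one, h3]
      rw [h5]
    have h5 : orderOf b ∣ Fintype.card F - 1 :=
      orderOf_dvd_of_pow_eq_one (FiniteField.pow_card_sub_one_eq_one b hb)
    have h0 : Fintype.card F - 1 ≠ 0 := by have := Fintype.one_lt_card (α := F); omega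
    have := (padicValNat_dvd_iff_le h0).1 (h4.trans h5)
    omega
  obtain ⟨s, hs⟩ := symm_zmod h _ hsum
  have hφs : φ s ≠ 0 := pow_ne_zero _ hω0
  refine ⟨φ s * b, fun i => φ s * d i, mul_ne_zero hφs hb, fun i => ?_, ?_, ?_⟩
  · rw [mul_pow, hd1, mul_one, ← pow_mul, mul_comm, pow_mul, hωr, one_pow]
  · rw [mul_smul]
    convert isConj_smul hd2 (φ s) using 1
    rw [← diagonal_smul]; rfl
  · have := congrArg (Multiset.map φ) hs
    simp only [Multiset.map_map, Function.comp, φneg, φadd, φa] at this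
    simpa only [mul_comm] using this

end finite

end CfsgLib.ElusH
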