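import Mathlib
import Cfsg.Agent.Lib.ElusH.Diag
import Cfsg.Agent.Lib.Asch.Subfield
import Cfsg.Agent.Lib.Elusive.Count
import Cfsg.Agent.Lib.MatConj.Semi

/-!
Prime order elements and subfield subgroups of `SL_n(q)`.
-/

set_option autoImplicit false

namespace CfsgLib.ElusH

open Matrix Polynomial CfsgLib.MatConj CfsgLib.Elusive Cfsg.Geo

variable {F : Type*} [Field F] {ι : Type} [Fintype ι] [DecidableEq ι]

theorem mem_subfield_iff [Finite F] (E : Subfield F) {x : F} :
    x ∈ E ↔ x ^ Nat.card E = x := by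
  classical
  have := Fintype.ofFinite E
  have h1 : ∀ y ∈ E, y ^ Nat.card E = y := fun y hy => by
    rw [Nat.card_eq_fintype_card]
    exact congrArg Subtype.val (FiniteField.pow_card (⟨y, hy⟩ : E))
  refine ⟨h1 x, fun hx => ?_⟩
  have hlt : 1 < Nat.card E := Finite.one_lt_card
  have h2 : ∀ y : F, y ^ Nat.card E = y → y ∈ (X ^ Nat.card E - X : F[X]).rootSet F := fun y hy => by
    rw [mem_rootSet_of_ne (FiniteField.X_pow_card_sub_X_ne_zero F hlt)]
    rw [map_sub, map_pow, aeval_X, hy, sub_self]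
  have h3 : (E : Set F) = (X ^ Nat.card E - X : F[X]).rootSet F := by
    refine Set.eq_of_subset_of_ncard_le (fun y hy => h2 y (h1 y hy)) ((ncard_rootSet_le _ _).trans ?_)
    rw [FiniteField.X_pow_card_sub_X_natDegree_eq F hlt]
    rfl
  rw [← SetLike.mem_coe, h3]
  exact h2 x hx

theorem exists_frob_subfield [Finite F] (p : ℕ) [Fact p.Prime] [CharP F p] (E : Subfield F) :
    ∃ φ : F →+* F, ∀ x, φ x = x ^ Nat.card E := by
  have := Fintype.ofFinite E
  obtain ⟨n, -, hn⟩ := FiniteField.card E p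
  exact ⟨iterateFrobenius F p n, fun x => by rw [iterateFrobenius_def, Nat.card_eq_fintype_card, hn]⟩

theorem exists_SL_of_ci' {H : Subgroup (GL ι F)} {x : GL ι F} (h : CI H (x : Matrix ι ι F))
    (hd : ∀ d : F, d ≠ 0 → ∃ c : Matrix ι ι F, ∃ g ∈ H, Commute c x ∧
      c.det * (g : Matrix ι ι F).det = d) :
    ∃ g ∈ specialLinear ι F, g⁻¹ * x * g ∈ H := by
  obtain ⟨y, hy, e⟩ := h
  obtain ⟨P, hP, h⟩ := isConj_iff_exists_unit.1 e
  obtain ⟨c, g, hg, hc, hdet⟩ := hd P.det⁻¹ (inv_ne_zero hP.ne_zero)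
  obtain ⟨c, rfl⟩ := exists_GL (A := c) (left_ne_zero_of_mul (hdet ▸ inv_ne_zero hP.ne_zero))
  obtain ⟨P, rfl⟩ := exists_GL (A := P) hP.ne_zero
  refine ⟨(g * P * c)⁻¹, inv_mem (mem_SL.2 ?_), ?_⟩
  · simp only [Units.val_mul, det_mul]
    rw [mul_comm, ← mul_assoc, hdet, inv_mul_cancel₀ hP.ne_zero]
  · have h1 : P * x = y * P := Units.ext h
    have h2 : c * x = x * c := Units.ext hc
    have : (g * P * c)⁻¹⁻¹ * x * (g * P * c)⁻¹ = g * y * g⁻¹ := by
      rw [inv_inv, mul_assoc (g * P), h2, ← mul_assoc, mul_assoc g P, h1]; group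
    rw [this]
    exact H.mul_mem (H.mul_mem hg hy) (inv_mem hg)

variable {E : Subfield F}

theorem mem_subfieldSubgroup_one {g : GL ι F} : g ∈ subfieldSubgroup E 1 ↔
    ∃ (c : F) (B : Matrix ι ι E), c ≠ 0 ∧ (g : Matrix ι ι F) = c • B.map E.subtype := by
  rw [Asch.mem_subfieldSubgroup]
  simp only [Asch.cj_apply, inv_one, Units.val_one, one_mul, mul_one, Asch.rat_iff_exists]
  constructor
  · rintro ⟨c, B, h⟩
    exact ⟨c⁻¹, B, inv_ne_zero c.ne_zero, by rw [h, smul_smul, inv_mul_cancel₀ c.ne_zero, one_smul]⟩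
  · rintro ⟨c, B, hc, h⟩
    exact ⟨(Units.mk0 c hc)⁻¹, B, by simp [h, smul_smul, inv_mul_cancel₀ hc]⟩

theorem scalars_le_subfield : scalars ι F ≤ subfieldSubgroup E 1 := by
  intro g hg
  obtain ⟨c, hc⟩ := (mem_scalars_iff g).1 hg
  exact mem_subfieldSubgroup_one.2 ⟨c, 1, c.ne_zero, by rw [hc]; simp⟩

theorem ci_subfield_iff {A : Matrix ι ι F} (hA : A.det ≠ 0) : CI (subfieldSubgroup E 1) A ↔
    ∃ (c : F) (B : Matrix ι ι E), c ≠ 0 ∧ IsConj A (c • B.map E.subtype) := by
  constructor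
  · rintro ⟨g, hg, e⟩
    obtain ⟨c, B, hc, h⟩ := mem_subfieldSubgroup_one.1 hg
    exact ⟨c, B, hc, h ▸ e⟩
  · rintro ⟨c, B, hc, e⟩
    obtain ⟨g, hg⟩ := exists_GL (A := c • B.map E.subtype) (by rwa [← det_eq_of_isConj e])
    exact ⟨g, mem_subfieldSubgroup_one.2 ⟨c, B, hc, hg⟩, hg ▸ e⟩

theorem ci_subfield_of_isConj {A : Matrix ι ι F} (hA : A.det ≠ 0) {B : Matrix ι ι E}
    (e : IsConj A (B.map E.subtype)) : CI (subfieldSubgroup E 1) A :=
  (ci_subfield_iff hA).2 ⟨1, B, one_ne_zero, by rwa [one_smul]⟩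

theorem map_pow' {K : Type*} [Field K] (f : F →+* K) (B : Matrix ι ι F) (k : ℕ) :
    (B ^ k).map f = B.map f ^ k := map_pow f.mapMatrix B k

theorem map_sub_one {K : Type*} [Field K] (f : F →+* K) (B : Matrix ι ι F) :
    (B - 1).map f = B.map f - 1 := by
  have := map_sub f.mapMatrix B 1
  rwa [map_one] at this

theorem map_inj {K : Type*} [Field K] (f : F →+* K) {A B : Matrix ι ι F}
    (h : A.map f = B.map f) : A = B := Matrix.map_injective f.injective h

theorem isNilpotent_map_iff {K : Type*} [Field K] (f : F →+* K) {B : Matrix ι ι F} :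
    IsNilpotent (B.map f - 1) ↔ IsNilpotent (B - 1) := by
  rw [← map_sub_one]
  refine exists_congr fun k => ?_
  rw [← map_pow']
  exact ⟨fun h => map_inj f (by rw [h]; simp), fun h => by rw [h]; simp⟩

theorem jt_map {K : Type*} [Field K] (f : F →+* K) {B : Matrix ι ι F} (hB : IsNilpotent (B - 1)) :
    jt (B.map f) = jt B := by
  ext j
  rcases j with _ | j
  · rw [Multiset.count_eq_zero.2 fun h => (jt_pos _ h).ne rfl,
      Multiset.count_eq_zero.2 fun h => (jt_pos _ h).ne rfl]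
  · have h1 := count_jt_add hB j
    have h2 := count_jt_add ((isNilpotent_map_iff f).2 hB) j
    simp only [← map_sub_one, ← map_pow', rank_map] at h2
    omega

theorem ci_subfield_unip {A : Matrix ι ι F} (hA : IsNilpotent (A - 1)) :
    CI (subfieldSubgroup E 1) A := by
  obtain ⟨B, h1, h2⟩ := exists_jt_eq (F := E) (n := ι) (s := jt A) (fun _ => jt_pos A) (jt_sum hA)
  refine ci_subfield_of_isConj (by rw [det_eq_one_of_isNilpotent_sub_one hA]; exact one_ne_zero)
    (B := B) ((isConj_iff_jt hA ((isNilpotent_map_iff _).2 h1)).2 ?_)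
  rw [jt_map _ h1, h2]

theorem pow_mem_of_smul_map [Nonempty ι] {c z : F} (hc : c ≠ 0) {B : Matrix ι ι E} {r : ℕ}
    (h : (c • B.map E.subtype) ^ r = z • 1) : z / c ^ r ∈ E := by
  obtain ⟨i⟩ := ‹Nonempty ι›
  rw [_root_.smul_pow, ← map_pow'] at h
  have := congrFun (congrFun h i) i
  simp only [Matrix.smul_apply, map_apply, one_apply_eq, smul_eq_mul, mul_one] at this
  rw [← this, mul_div_cancel_left₀ _ (pow_ne_zero r hc)]
  exact Subtype.prop _

section finite
variable [Fintype F] {p r : ℕ} [hp : Fact p.Prime] [CharP F p] [hr : Fact r.Prime]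

omit hr in
include hp in
theorem ci_subfield_semi {A : Matrix ι ι F} {m : ℕ} (hm : (m : F) ≠ 0) (hA : A ^ m = 1)
    (h : A.charpoly ∈ lifts E.subtype) : CI (subfieldSubgroup E 1) A := by
  have hd : A.det ≠ 0 := by
    have hm0 : m ≠ 0 := by rintro rfl; simp at hm
    intro h0
    have := congrArg det hA
    rw [det_pow, h0, zero_pow hm0, det_one] at this
    exact zero_ne_one this
  obtain ⟨f, h1, h2, h3⟩ := lifts_and_natDegree_eq_and_monic h A.charpoly_monic
  obtain ⟨g, hg, hf⟩ := exists_GL_semisimple_charpoly_eq (F := E) (n := ι) p h3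
    (by rw [h2, charpoly_natDegree_eq_dim]) (by
      intro h0
      apply hd
      rw [det_eq_of_charpoly, ← h1, coeff_map, h0, map_zero, mul_zero])
  refine ci_subfield_of_isConj hd (B := g) (isConj_of_charpoly_eq_of_pow_eq_one hm
    (natCast_ne_zero_of_coprime hg) hA ?_ ?_)
  · rw [← map_pow', ← Units.val_pow_eq_pow_val, pow_orderOf_eq_one]; simp
  · rw [charpoly_map, hf, h1]

theorem exists_map_eq [Nonempty ι] (hq : ¬ r ∣ Fintype.card F - 1) {c : F} (hc : c ≠ 0)
    {B : Matrix ι ι E} (h : (c • B.map E.subtype) ^ r = 1) :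
    ∃ B' : Matrix ι ι E, c • B.map E.subtype = B'.map E.subtype := by
  have h1 := E.inv_mem (pow_mem_of_smul_map hc (z := 1) (by simpa using h))
  rw [one_div, inv_inv, mem_subfield_iff, ← pow_mul, mul_comm, pow_mul] at h1
  have h2 : c ∈ E := by
    rw [mem_subfield_iff, ← div_eq_one_iff_eq hc]
    exact eq_one_of_pow_eq_one hq (by rw [div_pow, h1, div_self (pow_ne_zero _ hc)])
  refine ⟨(⟨c, h2⟩ : E) • B, ?_⟩
  ext i j
  simp

theorem mem_lifts_of_mem_cyc (hrp : r ≠ p)
    (h : orderOf (Fintype.card F : ZMod r) = orderOf (Nat.card E : ZMod r)) {f : F[X]}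
    (hf : f ∈ cyc F r) : f ∈ lifts E.subtype := by
  classical
  haveI := Fintype.ofFinite E
  obtain ⟨h1, h2, h3⟩ := mem_cyc.1 hf
  rw [← map_cyclotomic r E.subtype, ← prod_cyc (F := E) hrp, Polynomial.map_prod] at h3
  obtain ⟨g, hg, h4⟩ := (Prime.dvd_finset_prod_iff h1.prime _).1 h3
  refine (mem_lifts _).2 ⟨g, ?_⟩
  refine eq_of_monic_of_dvd_of_natDegree_le h2 ((mem_cyc.1 hg).2.1.map _) h4 ?_
  rw [natDegree_map, natDegree_of_mem_cyc hrp hg, natDegree_of_mem_cyc hrp hf, h,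
    Nat.card_eq_fintype_card]

theorem ci_subfield_of_ord (hrp : r ≠ p)
    (h : orderOf (Fintype.card F : ZMod r) = orderOf (Nat.card E : ZMod r)) {A : Matrix ι ι F}
    (hA : A ^ r = 1) : CI (subfieldSubgroup E 1) A := by
  refine ci_subfield_semi (cast_ne_zero hrp) hA ?_
  obtain ⟨e, t, ht, h1⟩ := edM_ssEd hrp hA
  rw [charpoly_eq_prod_edM, h1]
  refine multiset_prod_mem _ fun a ha => ?_
  obtain ⟨x, hx, rfl⟩ := Multiset.mem_map.1 ha
  refine pow_mem ?_ _
  rcases Multiset.mem_add.1 hx with hx | hx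
  · rw [Multiset.eq_of_mem_replicate hx]
    exact (mem_lifts _).2 ⟨X - 1, by simp⟩
  · obtain ⟨f, hf, rfl⟩ := Multiset.mem_map.1 hx
    exact mem_lifts_of_mem_cyc hrp h (ht f hf)

theorem ord_dvd_of_ci_subfield [Nonempty ι] (hrp : r ≠ p) (hq : ¬ r ∣ Fintype.card F - 1)
    {A : Matrix ι ι F} (hA : A ^ r = 1) (h : CI (subfieldSubgroup E 1) A) :
    orderOf (Nat.card E : ZMod r) ∣ (A - 1).rank := by
  haveI := Fintype.ofFinite E
  obtain ⟨g, hg, e⟩ := h
  obtain ⟨c, B, hc, h⟩ := mem_subfieldSubgroup_one.1 hg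
  rw [h] at e
  obtain ⟨B', h'⟩ := exists_map_eq hq hc (pow_eq_one_of_isConj e hA)
  rw [h'] at e
  have h1 : B' ^ r = 1 := map_inj E.subtype (by
    rw [map_pow', pow_eq_one_of_isConj e hA]; simp)
  rw [← rk_one, rk_of_isConj e, rk_one, ← map_sub_one, rank_map, Nat.card_eq_fintype_card]
  exact ord_dvd_rank hrp h1

omit hr in
include hp in
theorem exists_tau_subfield {A : Matrix ι ι F} (h : CI (subfieldSubgroup E 1) A) :
    ∃ c : F, c ≠ 0 ∧ ∀ a, rk A (c * (a / c) ^ Nat.card E) = rk A a := by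
  obtain ⟨g, hg, e⟩ := h
  obtain ⟨c, B, hc, h⟩ := mem_subfieldSubgroup_one.1 hg
  rw [h] at e
  obtain ⟨φ, hφ⟩ := exists_frob_subfield p E
  refine ⟨c, hc, fun a => ?_⟩
  have h1 : (B.map E.subtype).map φ = B.map E.subtype := by
    ext i j
    simp only [map_apply, hφ]
    exact (mem_subfield_iff E).1 (Subtype.prop _)
  rw [rk_of_isConj e, rk_of_isConj e, rk_smul _ hc, ← hφ, ← h1, rk_map, h1, ← rk_smul _ hc,
    mul_div_cancel₀ _ hc]

include hp in
theorem Bad.not_ci_subfield {A : Matrix ι ι F} {b ω : F} (h : Bad r A b ω)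
    (h0 : ¬ r ∣ Nat.card E - 1) : ¬ CI (subfieldSubgroup E 1) A := by
  intro hc
  obtain ⟨c, hc0, hτ⟩ := exists_tau_subfield (p := p) hc
  obtain ⟨h1, h2⟩ := h.fix hr.out.ne_zero _ fun a _ => hτ a
  have h3 : ω ^ Nat.card E = ω := by
    have : c * (b / c) ^ Nat.card E * ω ^ Nat.card E = b * ω := by
      rw [← h2, mul_assoc, ← mul_pow, mul_div_right_comm]
    rw [h1] at this
    exact mul_left_cancel₀ h.b_ne this
  have hω0 : ω ≠ 0 := by
    rintro rfl
    have := h.ω_pow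
    rw [zero_pow hr.out.ne_zero] at this
    exact zero_ne_one this
  apply h0
  rw [← orderOf_eq_prime h.ω_pow h.ω_ne, orderOf_dvd_iff_pow_eq_one]
  apply mul_right_cancel₀ hω0
  rw [← pow_succ, Nat.sub_add_cancel Nat.card_pos, h3, one_mul]

omit hr in
include hp in
theorem mem_lifts_of_map_eq {f : F[X]} {φ : F →+* F} (hφ : ∀ x, φ x = x ^ Nat.card E)
    (h : f.map φ = f) : f ∈ lifts E.subtype := by
  rw [lifts_iff_coeff_lifts]
  intro n
  refine ⟨⟨f.coeff n, (mem_subfield_iff E).2 ?_⟩, rfl⟩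
  rw [← hφ, ← coeff_map, h]

theorem nat_geom {x : ℕ} (hx : 0 < x) (k : ℕ) :
    x ^ k - 1 = (x - 1) * ∑ t ∈ Finset.range k, x ^ t := by
  zify [hx, Nat.one_le_pow k x hx]
  rw [mul_geom_sum]

include hp in
theorem exists_of_dvd_subfield_index (hrp : r ≠ p) {n k : ℕ}
    (hk : Fintype.card F = Nat.card E ^ k)
    (h : r ∣ (subfieldSubgroup E (1 : GL (Fin n) F)).relIndex (specialLinear (Fin n) F)) :
    ∃ j, 2 ≤ j ∧ j ≤ n ∧ (Fintype.card F : ZMod r) ^ j = 1 ∧
      ((Nat.card E : ZMod r) ^ j = 1 → r ∣ k) := by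
  haveI := Fintype.ofFinite E
  have h1 := relIndex_mul_dvd (subfieldSubgroup E (1 : GL (Fin n) F)) (specialLinear (Fin n) F)
    (SpecialLinearGroup.toGL.comp (SpecialLinearGroup.map E.subtype))
    (SpecialLinearGroup.toGL_injective.comp fun a b h =>
      Subtype.ext (map_inj E.subtype (congrArg Subtype.val h)))
    (fun a => mem_subfieldSubgroup_one.2 ⟨1, a, one_ne_zero, by rw [one_smul]; rfl⟩)
    (fun a => mem_SL.2 (SpecialLinearGroup.map E.subtype a).2)
  rw [card_specialLinear, CfsgLib.Classical.sl_card, CfsgLib.Classical.sl_card, hk,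
    ← Nat.card_eq_fintype_card] at h1
  set q := Nat.card E
  have hq : 1 < q := Finite.one_lt_card
  have h2 : ∏ i ∈ Finset.range (n - 1), ((q ^ k) ^ (i + 2) - 1) =
      (∏ i ∈ Finset.range (n - 1), (q ^ (i + 2) - 1)) *
        ∏ i ∈ Finset.range (n - 1), ∑ t ∈ Finset.range k, (q ^ (i + 2)) ^ t := by
    rw [← Finset.prod_mul_distrib]
    refine Finset.prod_congr rfl fun i _ => ?_
    rw [← pow_mul, mul_comm k, pow_mul, nat_geom (by positivity)]
  rw [h2, ← pow_mul] at h1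
  have h3 := prime_dvd_of_mul_dvd hr.out (by
      have := not_dvd_card (F := E) hrp
      rwa [← Nat.card_eq_fintype_card] at this)
    (Finset.prod_ne_zero_iff.2 fun i _ => by
      have := Nat.one_lt_pow (n := i + 2) (by omega) hq; omega) h1 h
  obtain ⟨i, hi, h4⟩ := (Prime.dvd_finset_prod_iff hr.out.prime _).1 h3
  rw [Finset.mem_range] at hi
  rw [← ZMod.natCast_eq_zero_iff] at h4
  push_cast at h4
  refine ⟨i + 2, by omega, by omega, ?_, fun h5 => ?_⟩
  · rw [hk]
    push_cast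
    rw [← pow_mul, mul_comm, pow_mul, ← sub_eq_zero, ← mul_geom_sum, h4, mul_zero]
  · rw [h5] at h4
    simpa [ZMod.natCast_eq_zero_iff] using h4

theorem isSquare_of_mem (h2 : Odd (Fintype.card F)) (hk : Fintype.card F = Nat.card E ^ 2)
    {a : F} (ha : a ∈ E) : IsSquare a := by
  by_cases h0 : a = 0
  · simp [h0]
  have hc : ringChar F ≠ 2 := fun h => by
    have := FiniteField.even_card_iff_char_two.1 h
    rw [Nat.odd_iff] at h2; omega
  rw [FiniteField.isSquare_iff hc h0]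
  have h1 : Odd (Nat.card E) := by
    rw [hk] at h2
    exact (Nat.odd_pow_iff (by norm_num)).1 h2
  obtain ⟨m, hm⟩ := h1
  have h3 := (mem_subfield_iff E).1 ha
  rw [hm, pow_succ] at h3
  have h4 : a ^ (2 * m) = 1 := mul_right_cancel₀ h0 (by rw [h3, one_mul])
  have : Fintype.card F / 2 = 2 * m * (m + 1) := by
    rw [hk, hm]
    have : (2 * m + 1) ^ 2 = 2 * (2 * m * (m + 1)) + 1 := by ring
    omega
  rw [this, pow_mul, h4, one_pow]

include hp in
theorem exists_not_isSquare_mem (h2 : Odd (Fintype.card F)) {k : ℕ} (ho : Odd k)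
    (hk : Fintype.card F = Nat.card E ^ k) : ∃ a : E, ¬ IsSquare (a : F) := by
  haveI := Fintype.ofFinite E
  have h1 : Odd (Nat.card E) := by
    rw [hk] at h2
    exact (Nat.odd_pow_iff ho.pos.ne').1 h2
  have hc : ringChar E ≠ 2 := fun h => by
    have := FiniteField.even_card_iff_char_two.1 h
    rw [Nat.odd_iff, Nat.card_eq_fintype_card] at h1; omega
  have hc' : ringChar F ≠ 2 := fun h => by
    have := FiniteField.even_card_iff_char_two.1 h
    rw [Nat.odd_iff] at h2; omega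
  obtain ⟨a, ha⟩ := FiniteField.exists_nonsquare hc
  refine ⟨a, fun ⟨e, he⟩ => ha ?_⟩
  have h3 := (mem_subfield_iff E).1 a.2
  rw [he, mul_pow] at h3
  rcases mul_self_eq_mul_self_iff.1 h3 with h4 | h4
  · exact ⟨⟨e, (mem_subfield_iff E).2 h4⟩, Subtype.ext he⟩
  · have h5 : ∀ j, e ^ Nat.card E ^ j = (-1) ^ j * e := by
      intro j
      induction j with
      | zero => simp
      | succ j ih => rw [pow_succ, pow_mul, ih, mul_pow, h4, ← pow_mul, mul_comm j, pow_mul,
          h1.neg_one_pow, pow_succ]; ring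
    have h6 := h5 k
    rw [← hk, FiniteField.pow_card, ho.neg_one_pow] at h6
    have h7 : e = 0 := by
      have : (2 : F) * e = 0 := by linear_combination h6
      exact (mul_eq_zero.1 this).resolve_left (Ring.two_ne_zero hc')
    exact ⟨0, Subtype.ext (by simpa [h7] using he)⟩

end finite

theorem isSquare_det_of_commute {κ : Type} [Fintype κ] [DecidableEq κ] (e : κ ⊕ κ ≃ ι)
    {c : Matrix ι ι F} (h : Commute c (reindex e e (fromBlocks 1 1 0 1))) : IsSquare c.det := by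
  obtain ⟨c, rfl⟩ := (reindex e e).surjective c
  have h1 : c * fromBlocks 1 1 0 1 = fromBlocks 1 1 0 1 * c := by
    apply (reindexAlgEquiv F F e).injective
    rw [map_mul, map_mul]
    exact h
  rw [← fromBlocks_toBlocks c, fromBlocks_multiply, fromBlocks_multiply, fromBlocks_inj] at h1
  simp only [Matrix.mul_one, Matrix.mul_zero, Matrix.one_mul, Matrix.zero_mul, add_zero,
    zero_add] at h1
  have h2 : c.toBlocks₂₁ = 0 := by simpa using h1.1
  have h3 : c.toBlocks₁₁ = c.toBlocks₂₂ := by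
    have := h1.2.1
    rw [add_comm] at this
    exact add_left_cancel this
  rw [det_reindex_self, ← fromBlocks_toBlocks c, h2, det_fromBlocks_zero₂₁, h3]
  exact ⟨_, rfl⟩

end CfsgLib.ElusH
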